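/-
Piece S2 of helper94's farm (Sp rows wave 2, S5787) (by helper8).
-/
import Cfsg.Agent.Lib.Helper94.SpRow.Defs2

set_option autoImplicit false

namespace Cfsg.Agent.Lib.Helper8.SpRow

open Cfsg Cfsg.Geo Matrix Cfsg.Agent.Lib.Helper13.Asch Cfsg.Agent.Lib.Helper94.SpRow
open scoped MatrixGroups

variable {F : Type*} [Field F]

theorem std_commutant (h2 : (2 : F) ≠ 0) (X : Matrix (Fin 2 ⊕ Fin 2) (Fin 2 ⊕ Fin 2) F)
    (hA : X * A0 = A0 * X) (hB : X * B0 = B0 * X)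
    (hJ : X * Matrix.J (Fin 2) F = Matrix.J (Fin 2) F * X) :
    ∃ x y : F, X = x • 1 + y • Matrix.J (Fin 2) F := by
  have eA := fun i j => congrFun (congrFun hA i) j
  have eB := fun i j => congrFun (congrFun hB i) j
  have eJ := fun i j => congrFun (congrFun hJ i) j
  simp only [Matrix.mul_apply, Fintype.sum_sum_type, Fin.sum_univ_two, A0, B0, Matrix.J] at eA eB eJ
  have z : ∀ a : F, a = -a → a = 0 := by
    intro a ha
    have : (2 : F) * a = 0 := by linear_combination ha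
    exact (mul_eq_zero.1 this).resolve_left h2
  refine ⟨X (Sum.inl 0) (Sum.inl 0), X (Sum.inr 0) (Sum.inl 0), ?_⟩
  have A1 := eA (Sum.inl 0) (Sum.inl 1)
  have A2 := eA (Sum.inl 1) (Sum.inl 0)
  have A3 := eA (Sum.inl 0) (Sum.inr 1)
  have A4 := eA (Sum.inl 1) (Sum.inr 0)
  have A5 := eA (Sum.inr 0) (Sum.inl 1)
  have A6 := eA (Sum.inr 1) (Sum.inl 0)
  have A7 := eA (Sum.inr 0) (Sum.inr 1)
  have A8 := eA (Sum.inr 1) (Sum.inr 0)
  have B1 := eB (Sum.inl 0) (Sum.inl 1)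
  have B2 := eB (Sum.inl 0) (Sum.inr 1)
  have B3 := eB (Sum.inr 0) (Sum.inl 1)
  have B4 := eB (Sum.inr 0) (Sum.inr 1)
  have J1 := eJ (Sum.inl 0) (Sum.inl 0)
  have J2 := eJ (Sum.inl 0) (Sum.inr 0)
  simp at A1 A2 A3 A4 A5 A6 A7 A8 B1 B2 B3 B4 J1 J2
  have A1' := z _ A1.symm
  have A2' := z _ A2
  have A3' := z _ A3.symm
  have A4' := z _ A4
  have A5' := z _ A5.symm
  have A6' := z _ A6
  have A7' := z _ A7.symm
  have A8' := z _ A8
  clear eA eB eJ
  ext i j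
  rcases i with i | i <;> rcases j with j | j <;> fin_cases i <;> fin_cases j <;>
    simp [Matrix.J, Matrix.one_apply, A1', A2', A3', A4', A5', A6', A7', A8', ← B1, ← B2, ← B3,
      ← B4, ← J2, J1]

end Cfsg.Agent.Lib.Helper8.SpRow
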