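/-
Piece S0 of helper94's farm (Sp rows wave 2, S5787) (by helper8).
-/
import Cfsg.Agent.Lib.Helper94.SpRow.Defs2

set_option autoImplicit false

namespace Cfsg.Agent.Lib.Helper8.SpRow

open Cfsg Cfsg.Geo Matrix Cfsg.Agent.Lib.Helper13.Asch Cfsg.Agent.Lib.Helper94.SpRow
open scoped MatrixGroups

variable {F : Type*} [Field F]

local notation "M4" => Matrix (Fin 2 ⊕ Fin 2) (Fin 2 ⊕ Fin 2)

lemma S0_AA : (A0 : M4 F) * A0 = 1 := by
  ext i j
  rcases i with i | i <;> rcases j with j | j <;> fin_cases i <;> fin_cases j <;>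
    simp [A0, Matrix.mul_apply, Fintype.sum_sum_type, Fin.sum_univ_two]

lemma S0_BB : (B0 : M4 F) * B0 = 1 := by
  ext i j
  rcases i with i | i <;> rcases j with j | j <;> fin_cases i <;> fin_cases j <;>
    simp [B0, Matrix.mul_apply, Fintype.sum_sum_type, Fin.sum_univ_two]

lemma S0_DD (h3 : (3 : F) = 0) : (D0 : M4 F) * D0 = -1 := by
  have h : (1 : F) + 1 = -1 := by linear_combination h3
  ext i j
  rcases i with i | i <;> rcases j with j | j <;> fin_cases i <;> fin_cases j <;>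
    simp [D0, Matrix.mul_apply, Fintype.sum_sum_type, Fin.sum_univ_two, h]

lemma S0_JJ : Matrix.J (Fin 2) F * Matrix.J (Fin 2) F = -1 := by
  ext i j
  rcases i with i | i <;> rcases j with j | j <;> fin_cases i <;> fin_cases j <;>
    simp [Matrix.J, Matrix.mul_apply, Fintype.sum_sum_type, Fin.sum_univ_two]

lemma S0_AB : (A0 : M4 F) * B0 = -(B0 * A0) := by
  ext i j
  rcases i with i | i <;> rcases j with j | j <;> fin_cases i <;> fin_cases j <;>
    simp [A0, B0, Matrix.mul_apply, Fintype.sum_sum_type, Fin.sum_univ_two]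

lemma S0_JD : Matrix.J (Fin 2) F * D0 = -(D0 * Matrix.J (Fin 2) F) := by
  ext i j
  rcases i with i | i <;> rcases j with j | j <;> fin_cases i <;> fin_cases j <;>
    simp [Matrix.J, D0, Matrix.mul_apply, Fintype.sum_sum_type, Fin.sum_univ_two]

lemma S0_AJ : (A0 : M4 F) * Matrix.J (Fin 2) F = Matrix.J (Fin 2) F * A0 := by
  ext i j
  rcases i with i | i <;> rcases j with j | j <;> fin_cases i <;> fin_cases j <;>
    simp [Matrix.J, A0, Matrix.mul_apply, Fintype.sum_sum_type, Fin.sum_univ_two]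

lemma S0_BJ : (B0 : M4 F) * Matrix.J (Fin 2) F = Matrix.J (Fin 2) F * B0 := by
  ext i j
  rcases i with i | i <;> rcases j with j | j <;> fin_cases i <;> fin_cases j <;>
    simp [Matrix.J, B0, Matrix.mul_apply, Fintype.sum_sum_type, Fin.sum_univ_two]

lemma S0_AD : (A0 : M4 F) * D0 = D0 * A0 := by
  ext i j
  rcases i with i | i <;> rcases j with j | j <;> fin_cases i <;> fin_cases j <;>
    simp [D0, A0, Matrix.mul_apply, Fintype.sum_sum_type, Fin.sum_univ_two]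

lemma S0_BD : (B0 : M4 F) * D0 = D0 * B0 := by
  ext i j
  rcases i with i | i <;> rcases j with j | j <;> fin_cases i <;> fin_cases j <;>
    simp [D0, B0, Matrix.mul_apply, Fintype.sum_sum_type, Fin.sum_univ_two]

lemma S0_At : (A0 : M4 F)ᵀ = A0 := by
  ext i j
  rcases i with i | i <;> rcases j with j | j <;> fin_cases i <;> fin_cases j <;>
    simp [A0, Matrix.transpose_apply]

lemma S0_Bt : (B0 : M4 F)ᵀ = B0 := by
  ext i j
  rcases i with i | i <;> rcases j with j | j <;> fin_cases i <;> fin_cases j <;>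
    simp [B0, Matrix.transpose_apply]

lemma S0_Dt : (D0 : M4 F)ᵀ = D0 := by
  ext i j
  rcases i with i | i <;> rcases j with j | j <;> fin_cases i <;> fin_cases j <;>
    simp [D0, Matrix.transpose_apply]

lemma S0_Jt : (Matrix.J (Fin 2) F)ᵀ = -Matrix.J (Fin 2) F := by
  ext i j
  rcases i with i | i <;> rcases j with j | j <;> fin_cases i <;> fin_cases j <;>
    simp [Matrix.J, Matrix.transpose_apply]

theorem std_relations (h3 : (3 : F) = 0) :
    (A0 : Matrix _ _ F) * A0 = 1 ∧ (B0 : Matrix _ _ F) * B0 = 1 ∧ (D0 : Matrix _ _ F) * D0 = -1 ∧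
    (A0 : Matrix _ _ F) * B0 = -(B0 * A0) ∧ Matrix.J (Fin 2) F * D0 = -(D0 * Matrix.J (Fin 2) F) ∧
    (A0 : Matrix _ _ F) * Matrix.J (Fin 2) F = Matrix.J (Fin 2) F * A0 ∧
    (B0 : Matrix _ _ F) * Matrix.J (Fin 2) F = Matrix.J (Fin 2) F * B0 ∧
    (A0 : Matrix _ _ F) * D0 = D0 * A0 ∧ (B0 : Matrix _ _ F) * D0 = D0 * B0 ∧
    ∃ a b c d : GL (Fin 2 ⊕ Fin 2) F, (a : Matrix _ _ F) = A0 ∧ (b : Matrix _ _ F) = B0 ∧
      (c : Matrix _ _ F) = Matrix.J (Fin 2) F ∧ (d : Matrix _ _ F) = D0 ∧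
      a ∈ R0 F ∧ b ∈ R0 F ∧ c ∈ R0 F ∧ d ∈ R0 F := by
  refine ⟨S0_AA, S0_BB, S0_DD h3, S0_AB, S0_JD, S0_AJ, S0_BJ, S0_AD, S0_BD,
    ⟨A0, A0, S0_AA, S0_AA⟩, ⟨B0, B0, S0_BB, S0_BB⟩,
    ⟨Matrix.J (Fin 2) F, -Matrix.J (Fin 2) F, by rw [mul_neg, S0_JJ, neg_neg],
      by rw [neg_mul, S0_JJ, neg_neg]⟩,
    ⟨D0, -D0, by rw [mul_neg, S0_DD h3, neg_neg], by rw [neg_mul, S0_DD h3, neg_neg]⟩,
    rfl, rfl, rfl, rfl, ?_, ?_, ?_, ?_⟩
  · rw [R0, mem_RSg, mem_spGL_iff_gram]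
    refine ⟨?_, ?_⟩
    · change (A0 : M4 F)ᵀ * Matrix.J (Fin 2) F * A0 = _
      rw [S0_At, S0_AJ, mul_assoc, S0_AA, mul_one]
    · intro X hX
      change SC (A0 : M4 F) X
      rcases hX with rfl | rfl | rfl
      · exact Or.inl S0_AJ
      · exact Or.inl rfl
      · exact Or.inr S0_AB
  · rw [R0, mem_RSg, mem_spGL_iff_gram]
    refine ⟨?_, ?_⟩
    · change (B0 : M4 F)ᵀ * Matrix.J (Fin 2) F * B0 = _
      rw [S0_Bt, S0_BJ, mul_assoc, S0_BB, mul_one]
    · intro X hX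
      change SC (B0 : M4 F) X
      rcases hX with rfl | rfl | rfl
      · exact Or.inl S0_BJ
      · exact Or.inr (by rw [S0_AB, neg_neg])
      · exact Or.inl rfl
  · rw [R0, mem_RSg, mem_spGL_iff_gram]
    refine ⟨?_, ?_⟩
    · change (Matrix.J (Fin 2) F)ᵀ * Matrix.J (Fin 2) F * Matrix.J (Fin 2) F = _
      rw [S0_Jt, neg_mul, S0_JJ, neg_neg, one_mul]
    · intro X hX
      change SC (Matrix.J (Fin 2) F) X
      rcases hX with rfl | rfl | rfl
      · exact Or.inl rfl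
      · exact Or.inl S0_AJ.symm
      · exact Or.inl S0_BJ.symm
  · rw [R0, mem_RSg, mem_spGL_iff_gram]
    refine ⟨?_, ?_⟩
    · change (D0 : M4 F)ᵀ * Matrix.J (Fin 2) F * D0 = _
      rw [S0_Dt, mul_assoc, S0_JD, mul_neg, ← mul_assoc, S0_DD h3, neg_mul, neg_neg, one_mul]
    · intro X hX
      change SC (D0 : M4 F) X
      rcases hX with rfl | rfl | rfl
      · exact Or.inr (by rw [S0_JD, neg_neg])
      · exact Or.inl S0_AD.symm
      · exact Or.inl S0_BD.symm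

end Cfsg.Agent.Lib.Helper8.SpRow
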