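/-
Piece ES of helper94's farm (Sp rows wave 2, S5787) (by helper8).
-/
import Cfsg.Agent.Lib.Helper94.SpRow.Defs2
import Cfsg.Agent.Lib.Helper91.Sp.H1
import Cfsg.Agent.Lib.Helper91.Sp.H2
import Cfsg.Agent.Lib.Helper1.Sp.Z0
import Cfsg.Agent.Lib.Helper11.SpRow.CH

set_option autoImplicit false

namespace Cfsg.Agent.Lib.Helper8.SpRow

open Cfsg Cfsg.Geo Matrix Cfsg.Agent.Lib.Helper13.Asch Cfsg.Agent.Lib.Helper94.SpRow
open Cfsg.Agent.Lib.Helper90.Sp Cfsg.Agent.Lib.Helper91.Asch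
open scoped MatrixGroups

variable {F : Type*} [Field F]

theorem class6_data {ι : Type} [Fintype ι] [DecidableEq ι] [Fintype F] (hι : 4 ≤ Fintype.card ι)
    {f : (ι → F) → (ι → F) → F} (hf : IsSymplecticForm f) {R : Subgroup (GL ι F)}
    (hR : FixesForm (matrixSet R) f) (henv : env R = ⊤)
    (hcomm : ∀ x ∈ R, ∀ y ∈ R, x * y * x⁻¹ * y⁻¹ ∈ scalars ι F) :
    IsSymplecticTypeGroup 2 R ∧ ActsAbsolutelyIrreducibly (matrixSet R) ∧ R ≤ similarityGroup f ∧
      Nat.card (Subgroup.center R) = 2 ∧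
      ∃ k : ℕ, Fintype.card ι = 2 ^ k ∧ Nat.card R = 2 ^ (1 + 2 * k) ∧ IsOfMinusType k R := by
  classical
  have hι2 : 2 ≤ Fintype.card ι := by omega
  have : Nonempty ι := Fintype.card_pos_iff.1 (by omega)
  have : Fact (Nat.Prime 2) := ⟨Nat.prime_two⟩
  obtain ⟨h2, hm1, hx4, hinf, hcard2⟩ :=
    Cfsg.Agent.Lib.Helper91.Sp.es_core hι2 hf.bilinear hf.nondegenerate hR henv hcomm
  have hnc := Cfsg.Agent.Lib.Helper12.Asch.not_comm_of_env_top hι2 henv
  have hp : IsPGroup 2 R := by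
    intro x
    exact ⟨2, Subtype.ext (hx4 x.1 x.2)⟩
  have hcardR := Cfsg.Agent.Lib.Helper96.Asch.card_eq_sq_mul R hcomm henv
  rw [hcard2] at hcardR
  -- members of `R ⊓ scalars` are `1` or `-1`
  have hpm : ∀ s ∈ R ⊓ scalars ι F, s = 1 ∨ s = scHom ι F (-1) := by
    intro s hs
    rw [hinf, Subgroup.mem_zpowers_iff] at hs
    obtain ⟨n, rfl⟩ := hs
    have hsq : scHom ι F (-1) ^ (2 : ℤ) = 1 := by
      rw [← map_zpow]; simp
    rcases Int.even_or_odd' n with ⟨m, rfl | rfl⟩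
    · left; rw [_root_.zpow_mul, hsq, _root_.one_zpow]
    · right
      rw [_root_.zpow_add, _root_.zpow_mul, hsq, _root_.one_zpow, one_mul, _root_.zpow_one]
  refine ⟨⟨Nat.prime_two, hp, ?_, ?_⟩, Cfsg.Agent.Lib.Helper96.Asch.absIrr_of_env_top henv,
    Cfsg.Agent.Lib.Helper1.Sp.le_similarityGroup hR,
    by rw [Cfsg.Agent.Lib.Helper91.Sp.card_center_of_env henv, hcard2], ?_⟩
  · intro A hA hAc
    have : Finite R := Nat.finite_of_card_ne_zero (by
      rw [hcardR]; positivity)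
    refine Cfsg.Agent.Lib.Helper11.SpRow.isCyclic_of_characteristic_of_class_two
      (⟨scHom ι F (-1), hm1⟩ : R) ?_ ?_ ?_ ?_ ?_ A hA ?_
    · apply Subtype.ext
      change scHom ι F (-1) * scHom ι F (-1) = 1
      rw [← map_mul]; simp
    · intro x
      apply Subtype.ext
      exact (scHom_comm (-1) x.1).symm
    · intro x hx
      have h1 : x.1 ∈ scalars ι F := by
        apply mem_scalars_of_commute henv
        intro w hw
        exact congrArg Subtype.val (hx ⟨w, hw⟩)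
      rcases hpm x.1 ⟨x.2, h1⟩ with h | h
      · exact Or.inl (Subtype.ext h)
      · exact Or.inr (Subtype.ext h)
    · intro x y
      have h1 : x.1 * y.1 * x.1⁻¹ * y.1⁻¹ ∈ R ⊓ scalars ι F :=
        ⟨R.mul_mem (R.mul_mem (R.mul_mem x.2 y.2) (R.inv_mem x.2)) (R.inv_mem y.2),
          hcomm x.1 x.2 y.1 y.2⟩
      have e1 : x.1 * y.1 = (x.1 * y.1 * x.1⁻¹ * y.1⁻¹) * (y.1 * x.1) := by group
      rcases hpm _ h1 with h | h
      · left
        apply Subtype.ext
        change x.1 * y.1 = y.1 * x.1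
        rw [e1, h, one_mul]
      · right
        apply Subtype.ext
        change x.1 * y.1 = scHom ι F (-1) * (y.1 * x.1)
        rw [e1, h]
    · rw [hcardR]
      nlinarith
    · intro x hx y hy
      have := hAc.is_comm.comm ⟨x, hx⟩ ⟨y, hy⟩
      exact congrArg Subtype.val this
  · have hdvd : Monoid.exponent R ∣ 4 :=
      Monoid.exponent_dvd_of_forall_pow_eq_one (fun x => Subtype.ext (hx4 x.1 x.2))
    have hexp : ∀ x ∈ R, x ^ Monoid.exponent R = 1 := fun x hx =>
      congrArg Subtype.val (Monoid.pow_exponent_eq_one (⟨x, hx⟩ : R))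
    have hne1 : Monoid.exponent R ≠ 1 := by
      intro h1
      apply hnc
      intro x hx y hy
      have e1 := hexp x hx
      have e2 := hexp y hy
      rw [h1, pow_one] at e1 e2
      rw [e1, e2]
    have hne2 : Monoid.exponent R ≠ 2 := by
      intro h2
      apply hnc
      intro x hx y hy
      have e1 := hexp x hx
      have e2 := hexp y hy
      have e3 := hexp (x * y) (R.mul_mem hx hy)
      rw [h2] at e1 e2 e3
      have i1 : x⁻¹ = x := by rw [inv_eq_iff_mul_eq_one, ← pow_two, e1]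
      have i2 : y⁻¹ = y := by rw [inv_eq_iff_mul_eq_one, ← pow_two, e2]
      have i3 : (x * y)⁻¹ = x * y := by rw [inv_eq_iff_mul_eq_one, ← pow_two, e3]
      rw [← i3, _root_.mul_inv_rev, i1, i2]
    have hle : Monoid.exponent R ≤ 4 := Nat.le_of_dvd (by norm_num) hdvd
    show Monoid.exponent R = 4
    generalize Monoid.exponent R = e at *
    interval_cases e <;> simp_all
  · obtain ⟨j, hj⟩ := hp.exists_card_eq
    have h3 : Fintype.card ι ∣ 2 ^ j := by
      rw [← hj, hcardR, sq, mul_assoc]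
      exact Dvd.intro _ rfl
    obtain ⟨k, -, hk⟩ := (Nat.dvd_prime_pow Nat.prime_two).1 h3
    refine ⟨k, hk, ?_, Cfsg.Agent.Lib.Helper91.Sp.minus_type h2 hf hR henv hcomm hk⟩
    rw [hcardR, hk, ← pow_mul, pow_add, pow_one, mul_comm k 2, mul_comm]

end Cfsg.Agent.Lib.Helper8.SpRow
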